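import Cfsg.Agent.H29.OInn
import Cfsg.Agent.S0790
import Cfsg.Agent.S0791

/-! The image of the inner-diagonal group in `Out (PΩ)` in even dimension. -/

set_option autoImplicit false

namespace Cfsg.Agent.H29

open Matrix QuadraticMap Cfsg.Agent.H28 Cfsg.Agent.H68 Polynomial

theorem pow_mod_four {q k : ℕ} (hq : Odd q) :
    (q ^ k % 4 = 3 ↔ Odd k ∧ q % 4 = 3) ∧ (q ^ k % 4 = 1 ↔ ¬ (Odd k ∧ q % 4 = 3)) := by
  rw [Nat.pow_mod]
  rcases Nat.odd_mod_four_iff.1 (Nat.odd_iff.1 hq) with h | h <;> rw [h]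
  · simp
  · rcases Nat.even_or_odd' k with ⟨j, rfl | rfl⟩
    · simp [pow_mul, Nat.pow_mod]
    · simp [pow_succ, pow_mul, Nat.mul_mod, Nat.pow_mod]

variable {F : Type*} [Field F]

theorem negO_plus_iff [Fintype F] (hodd : Odd (Fintype.card F)) {m : ℕ} (hm : 1 ≤ m) :
    negO (qPlus m F) ∈ Omega F (qPlus m F) ↔ ¬ (Odd m ∧ Fintype.card F % 4 = 3) :=
  ((negO_mem_iff _).trans (S0790.result rfl hodd m hm)).trans (pow_mod_four hodd).2

theorem negO_minus_iff [Fintype F] (hodd : Odd (Fintype.card F)) (m : ℕ) {a b : F}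
    (hab : Aniso a b) :
    negO (qMinus m F a b) ∈ Omega F (qMinus m F a b) ↔ (Even m ∧ Fintype.card F % 4 = 3) := by
  rw [← Nat.odd_add_one.trans Nat.not_odd_iff_even]
  exact ((negO_mem_iff _).trans (S0791.result rfl hodd (m + 1) (by omega) a b hab)).trans
    (pow_mod_four hodd).1

variable {ι : Type} [Fintype ι] [DecidableEq ι]

theorem charpoly_of_sq {A : Matrix ι ι F} {c : F} (hc : ¬ IsSquare c) (h : A * A = c • 1) {n : ℕ}
    (hn : Fintype.card ι = 2 * n) : A.charpoly = (X ^ 2 - C c) ^ n := by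
  have hi : Irreducible (X ^ 2 - C c : F[X]) :=
    X_pow_sub_C_irreducible_of_prime Nat.prime_two fun b hb => hc ⟨b, by rw [← hb, pow_two]⟩
  have hm : (X ^ 2 - C c : F[X]).Monic := monic_X_pow_sub_C c two_ne_zero
  have h1 : A.charpoly * (-A).charpoly = (X ^ 2 - C c) ^ (2 * n) := by
    rw [charpoly, charpoly, ← det_mul, ← hn, ← mul_one (_ ^ _), ← det_one (n := ι), ← det_smul]
    congr 1
    have : (C : F →+* F[X]).mapMatrix A * C.mapMatrix A = (C c : F[X]) • 1 := by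
      rw [← map_mul, h]; ext i j : 1; by_cases e : i = j <;> simp [e]
    rw [charmatrix, charmatrix, map_neg, sub_neg_eq_add, sub_mul, mul_add, mul_add, this,
      (scalar_commute _ (fun _ => Commute.all _ _) (C.mapMatrix A)).eq, ← map_mul, sub_smul, ← pow_two,
      add_comm (_ * _) (_ • _), add_sub_add_right_eq_sub]
    simp [smul_one_eq_diagonal]
  obtain ⟨i, -, hi'⟩ := (dvd_prime_pow hi.prime _).1 ⟨_, h1.symm⟩
  have h2 := eq_of_monic_of_associated A.charpoly_monic (hm.pow i) hi'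
  have h3 := A.charpoly_natDegree_eq_dim
  rw [h2, hm.natDegree_pow, natDegree_X_pow_sub_C, hn] at h3
  rw [h2, show i = n by omega]

theorem det_of_sq {A : Matrix ι ι F} {c : F} (hc : ¬ IsSquare c) (h : A * A = c • 1) {n : ℕ}
    (hn : Fintype.card ι = 2 * n) : A.det = (-c) ^ n := by
  rw [det_eq_sign_charpoly_coeff, charpoly_of_sq hc h hn, coeff_zero_eq_eval_zero, hn]
  simp

variable {Q : QuadraticForm F (ι → F)}

theorem exists_sim_of_lin (L : (ι → F) →ₗ[F] (ι → F)) {l c : Fˣ} (h1 : ∀ v, L (L v) = (l : F) • v)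
    (h2 : ∀ v, Q (L v) = c * Q v) :
    ∃ g : Sim Q, g * g = scSim Q l ∧ ∀ v, g.1.1 *ᵥ v = L v := by
  have h3 : LinearMap.toMatrix' L * LinearMap.toMatrix' L = (l : F) • 1 :=
    Matrix.ext_iff_mulVec.2 fun v => by
      rw [← mulVec_mulVec, LinearMap.toMatrix'_mulVec, LinearMap.toMatrix'_mulVec, h1,
        Matrix.smul_mulVec, one_mulVec]
  refine ⟨⟨⟨LinearMap.toMatrix' L, ((l⁻¹ : Fˣ) : F) • LinearMap.toMatrix' L, ?_, ?_⟩, c, fun v => ?_⟩,
    Subtype.ext (Units.ext (h3.trans (scGL_coe l).symm)), LinearMap.toMatrix'_mulVec L⟩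
  · rw [mul_smul_comm, h3, smul_smul, l.inv_mul, one_smul]
  · rw [smul_mul_assoc, h3, smul_smul, l.inv_mul, one_smul]
  · exact (congrArg Q (LinearMap.toMatrix'_mulVec L v)).trans (h2 v)

/-- A similarity whose square is its (non-square) multiplier. -/
def HasRoot (Q : QuadraticForm F (ι → F)) : Prop :=
  ∃ (c : Fˣ) (δ : Sim Q), ¬ IsSquare (c : F) ∧ δ * δ = scSim Q c ∧ ∀ v, Q (δ.1.1 *ᵥ v) = c * Q v

theorem hasRoot_plus [Finite F] (h2 : (2 : F) ≠ 0) (m : ℕ) : HasRoot (qPlus m F) := by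
  obtain ⟨c, hc⟩ := exists_nonsquare_unit h2
  let L : (Fin m ⊕ Fin m → F) →ₗ[F] (Fin m ⊕ Fin m → F) :=
    { toFun := fun v => Sum.elim (fun i => c * v (.inr i)) (fun i => v (.inl i))
      map_add' := fun u v => by ext (i | i) <;> simp [mul_add]
      map_smul' := fun t v => by ext (i | i) <;> simp [mul_left_comm] }
  have h : ∀ v, qPlus m F (L v) = c * qPlus m F v := fun v => by
    simp [L, coe_qPlus, quadFormPlus, Finset.mul_sum, mul_assoc, mul_comm (v (.inr _))]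
  obtain ⟨g, h1, h3⟩ := exists_sim_of_lin L (l := c) (fun v => by ext (i | i) <;> simp [L]) h
  exact ⟨c, g, hc, h1, fun v => by rw [h3, h]⟩

theorem hasRoot_minus [Finite F] (h2 : (2 : F) ≠ 0) (m : ℕ) {a b : F} (hab : Aniso a b) :
    HasRoot (qMinus m F a b) := by
  obtain ⟨c, hc⟩ := exists_nonsquare_unit h2
  obtain ⟨w, hw⟩ := exists_Q_eq (qMinus_nondeg 0 hab) (by simp) (c : F)
  simp only [coe_qMinus, quadFormMinus, Finset.univ_eq_empty, Finset.sum_empty, zero_add] at hw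
  set s := w (.inr 0)
  set t := w (.inr 1)
  let L : ((Fin m ⊕ Fin m) ⊕ Fin 2 → F) →ₗ[F] ((Fin m ⊕ Fin m) ⊕ Fin 2 → F) :=
    { toFun := fun v => Sum.elim (Sum.elim (fun i => c * v (.inl (.inr i))) fun i => v (.inl (.inl i)))
        ![s * v (.inr 0) + (a * s + b * t) * v (.inr 1), t * v (.inr 0) - s * v (.inr 1)]
      map_add' := fun u v => by
        ext ((i | i) | i)
        · simp [mul_add]
        · simp
        · fin_cases i <;> simp <;> ring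
      map_smul' := fun r v => by
        ext ((i | i) | i)
        · simp [mul_left_comm]
        · simp
        · fin_cases i <;> simp <;> ring }
  have h : ∀ v, qMinus m F a b (L v) = c * qMinus m F a b v := fun v => by
    simp only [L, coe_qMinus, quadFormMinus, LinearMap.coe_mk, AddHom.coe_mk, Sum.elim_inl,
      Sum.elim_inr, cons_val_zero, cons_val_one, mul_add, Finset.mul_sum, mul_assoc,
      mul_comm (v (.inl (.inr _)))]
    rw [← hw]; ring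
  obtain ⟨g, h1, h3⟩ := exists_sim_of_lin L (l := c) (fun v => by
    ext ((i | i) | i)
    · simp [L]
    · simp [L]
    · fin_cases i <;> simp [L, ← hw] <;> ring) h
  exact ⟨c, g, hc, h1, fun v => by rw [h3, h]⟩

variable [Finite F] (hQ : (polarBilin Q).Nondegenerate) (h5 : 5 ≤ Fintype.card ι)

local notation "𝐃" => dickson hQ (ok5 h5)
local notation "𝐒" => spinor hQ (ok5 h5)
local notation "𝛑" => MDict.πD (dSim hQ h5)
local notation "𝐣" => MDict.toΓ (dSim hQ h5)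
local notation "𝛍" => qMult (q_ne hQ h5)

/-- The outer automorphism induced by a similarity. -/
noncomputable def simρ : Sim Q →* Out (POmega F Q) := (QuotientGroup.mk' _).comp 𝛑

local notation "𝛒" => simρ hQ h5

theorem simρ_eq_one {g : Sim Q} : 𝛒 g = 1 ↔ g ∈ zMul (Omega F Q) := by
  refine (QuotientGroup.eq_one_iff _).trans ?_
  rw [inn_eq hQ h5, ← Subgroup.mem_comap, Subgroup.comap_map_eq,
    sup_eq_left.2 (ker_le_zMul hQ h5 _)]

theorem simρ_sc_mul (μ : Fˣ) (g : Sim Q) : 𝛒 (scSim Q μ * g) = 𝛒 g := by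
  rw [map_mul, (simρ_eq_one hQ h5).2 (scSim_mem_zMul _ _), one_mul]

theorem simρ_eq_of {s t : O Q} (h1 : 𝐃 s = 𝐃 t) (h2 : 𝐒 s = 𝐒 t) :
    𝛒 (oSim Q s) = 𝛒 (oSim Q t) := by
  rw [← mul_inv_eq_one, ← map_inv, ← map_mul, ← map_inv, ← map_mul, simρ_eq_one]
  exact oSim_mem_zMul ((mem_omega_iff hQ (ok5 h5) _).2
    ⟨by rw [map_mul, map_inv, h1, mul_inv_cancel], by rw [map_mul, map_inv, h2, mul_inv_cancel]⟩)

theorem simρ_zSO {z : O Q} (h1 : 𝐃 z = 1) (h2 : 𝐒 z = -1) {g : Sim Q} (hg : g ∈ zMul (𝐃).ker) :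
    𝛒 g = 1 ∨ 𝛒 g = 𝛒 (oSim Q z) := by
  obtain ⟨μ, s, hs, rfl⟩ := hg
  rw [simρ_sc_mul]
  exact (Int.units_eq_one_or (𝐒 s)).imp
    (fun h => (simρ_eq_one hQ h5).2 (oSim_mem_zMul ((mem_omega_iff hQ _ _).2 ⟨hs, h⟩)))
    fun h => simρ_eq_of hQ h5 (hs.trans h1.symm) (h.trans h2.symm)

variable (hn : Even (Fintype.card ι))

local notation "𝐂" => cls hQ h5 hn

theorem map_dP : (dP hQ h5 hn).πD.range.map (QuotientGroup.mk' _) = (𝐂).ker.map 𝛒 := by
  rw [dP_range, Subgroup.map_map]; rfl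

theorem hom_dP {C : Type*} [Group C] (e : Nonempty ((𝐂).ker.map 𝛒 ≃* C)) :
    ∃ φ : (dP hQ h5 hn).πD.range →* C, Function.Surjective φ ∧
      φ.ker = (Inn (POmega F Q)).subgroupOf (dP hQ h5 hn).πD.range :=
  e.elim fun e => exists_hom_of_map (MulAut.conj (G := POmega F Q)).range (map_dP hQ h5 hn) e

omit hn in
include hQ h5 in
theorem hom_pgo {C : Type*} [Group C] (e : Nonempty (simOut Q ≃* C)) :
    ∃ φ : pgoAut F Q →* C, Function.Surjective φ ∧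
      φ.ker = (Inn (POmega F Q)).subgroupOf (pgoAut F Q) :=
  e.elim fun e => exists_hom_of_map (MulAut.conj (G := POmega F Q)).range (map_pgoAut hQ h5) e

theorem mul_inv_mem_zSO {g d : Sim Q} (h : 𝐂 g = 𝐂 d)
    (h' : sqSign (𝛍 g : F) = sqSign (𝛍 d : F)) : g * d⁻¹ ∈ zMul (𝐃).ker := by
  rw [mem_zSO_iff hQ h5 hn, map_mul, map_inv, h, mul_inv_cancel, ← sqSign_eq_one]
  refine ⟨rfl, ?_⟩
  change sqMult hQ h5 _ = 1
  rw [map_mul, map_inv, mul_inv_eq_one]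
  exact h'

theorem ind_cases {z : O Q} (h1 : 𝐃 z = 1) (h2 : 𝐒 z = -1) {d : Sim Q} (h3 : 𝐂 d = 1)
    (h4 : ¬ IsSquare (𝛍 d : F)) : ∀ x ∈ (𝐂).ker.map 𝛒,
      x = 1 ∨ x = 𝛒 (oSim Q z) ∨ x = 𝛒 d ∨ x = 𝛒 (oSim Q z) * 𝛒 d := by
  rintro _ ⟨g, hg, rfl⟩
  by_cases h : IsSquare (𝛍 g : F)
  · have := simρ_zSO hQ h5 h1 h2 ((mem_zSO_iff hQ h5 hn g).2 ⟨hg, h⟩)
    tauto
  · have := simρ_zSO hQ h5 h1 h2 (mul_inv_mem_zSO hQ h5 hn (hg.trans h3.symm)
      ((sqSign_eq_neg_one.2 h).trans (sqSign_eq_neg_one.2 h4).symm))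
    rw [map_mul, map_inv, mul_inv_eq_one, mul_inv_eq_iff_eq_mul] at this
    tauto

theorem simρ_ne {d : Sim Q} (h4 : ¬ IsSquare (𝛍 d : F)) (s : O Q) : 𝛒 d ≠ 𝛒 (oSim Q s) := by
  rw [Ne, ← mul_inv_eq_one, ← map_inv, ← map_mul, simρ_eq_one]
  rintro ⟨μ, t, -, h⟩
  have := congrArg 𝛍 h
  rw [map_mul, map_mul, map_inv, qMult_oSim, qMult_oSim, qMult_scSim, inv_one, mul_one,
    mul_one] at this
  exact h4 ⟨μ, by rw [this, pow_two, Units.val_mul]⟩

theorem ind_c2 (hneg : negO Q ∉ Omega F Q) {δ : GamO Q} (hδ : δ.1.right = 1)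
    (h : ¬ IsSquare (mult δ : F)) : Nonempty ((𝐂).ker.map 𝛒 ≃* Multiplicative (ZMod 2)) := by
  obtain ⟨d, d1, d2⟩ := exists_delta_cls hQ h5 hn δ hδ h
  have h1 := dickson_negO_even hQ h5 hn
  have h3 : 𝛒 (oSim Q (negO Q)) = 1 := by
    rw [← scSim_neg_one, simρ_eq_one]; exact scSim_mem_zMul _ _
  refine equiv_c2_of_card (card_eq_two_of (t := 𝛒 d) (by simpa using simρ_ne hQ h5 d2 1)
    ⟨d, d1, rfl⟩ fun x hx => ?_)
  have := ind_cases hQ h5 hn h1 ((Int.units_eq_one_or _).resolve_left fun e =>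
    hneg ((mem_omega_iff hQ _ _).2 ⟨h1, e⟩)) d1 d2 x hx
  rw [h3, one_mul] at this
  tauto

theorem simρ_z_ne (hneg : negO Q ∈ Omega F Q) {z : O Q} (h1 : 𝐃 z = 1) (h2 : 𝐒 z = -1) :
    𝛒 (oSim Q z) ≠ 1 := fun h => by
  rw [simρ_eq_one, ← one_mul (oSim Q z), ← map_one (scSim Q),
    mem_zOm_iff hQ h5 (fun _ => ((mem_omega_iff hQ _ _).1 hneg).2) _ h1, h2] at h
  exact absurd h (by decide)

theorem simρ_o_sq (s : O Q) : 𝛒 (oSim Q s) * 𝛒 (oSim Q s) = 1 := by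
  rw [← map_mul, ← map_mul, simρ_eq_one]
  exact oSim_mem_zMul ((mem_omega_iff hQ (ok5 h5) _).2
    ⟨by rw [map_mul, Int.units_mul_self], by rw [map_mul, Int.units_mul_self]⟩)

theorem spinor_conj_refl (δ : Sim Q) {v : ι → F} (hv : Q v ≠ 0) :
    ∃ s : O Q, δ * oSim Q (refl Q v) * δ⁻¹ = oSim Q s ∧ 𝐃 s = -1 ∧
      𝐒 s = sqSign (𝛍 δ : F) * sqSign (Q v) :=
  ⟨oAut Q (𝐣 δ) (refl Q v), conj_oSim δ _, by rw [dickson_oAut hQ h5, dickson_refl hQ _ hv],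
    by rw [spinor_oAut_refl hQ h5 _ hv, mult_toΓ hQ h5]⟩

theorem ind_four (h2 : (2 : F) ≠ 0) (hneg : negO Q ∈ Omega F Q) (hr : HasRoot Q) {n : ℕ}
    (hm : Fintype.card ι = 2 * n) :
    (Odd n → Nonempty ((𝐂).ker.map 𝛒 ≃* Multiplicative (ZMod 4))) ∧
      (Even n → Nonempty ((𝐂).ker.map 𝛒 ≃* Multiplicative (ZMod 2 × ZMod 2))) := by
  obtain ⟨c, δ, hc, h1, h3⟩ := hr
  obtain ⟨z, z1, z2⟩ := exists_spinor_neg hQ h5 h2
  have h4 := qMult_eq (q_ne hQ h5) δ h3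
  have h6 := det_of_sq hc ((congrArg (fun g : Sim Q => g.1.1) h1).trans (scGL_coe c)) hm
  have hz := simρ_z_ne hQ h5 hneg z1 z2
  have h7 : 𝛒 δ * 𝛒 δ = 1 := by rw [← map_mul, h1, simρ_eq_one]; exact scSim_mem_zMul _ _
  refine ⟨fun h => ?_, fun h => ?_⟩
  · obtain ⟨v, hv⟩ := q_ne hQ h5
    have d1 : 𝐂 (δ * oSim Q (refl Q v)) = 1 := by
      rw [map_mul, cls_oSim, dickson_refl hQ _ hv, cls_eq_of_det hQ h5 hn h2 (u := -1) (by
        rw [h6, h4, hm, h.neg_pow]; simp)]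
      decide
    have d2 : ¬ IsSquare (𝛍 (δ * oSim Q (refl Q v)) : F) := by
      rwa [map_mul, qMult_oSim, mul_one, h4]
    obtain ⟨s, s1, s2, s3⟩ := spinor_conj_refl hQ h5 δ hv
    refine equiv_zmod_four hz (by simpa using simρ_ne hQ h5 d2 1) (simρ_ne hQ h5 d2 z)
      (simρ_o_sq hQ h5 z) ?_ ⟨_, d1, rfl⟩ (ind_cases hQ h5 hn z1 z2 d1 d2)
    rw [← map_mul, show δ * oSim Q (refl Q v) * (δ * oSim Q (refl Q v)) =
      δ * oSim Q (refl Q v) * δ⁻¹ * (δ * δ) * oSim Q (refl Q v) by group, s1, h1, ← scSim_comm,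
      mul_assoc, simρ_sc_mul, ← map_mul]
    refine simρ_eq_of hQ h5 (by rw [map_mul, s2, dickson_refl hQ _ hv, z1]; decide) ?_
    rw [map_mul, s3, spinor_refl hQ _ hv, h4, sqSign_eq_neg_one.2 hc, mul_assoc,
      Int.units_mul_self, mul_one, z2]
  · have d1 : 𝐂 δ = 1 := cls_eq_of_det hQ h5 hn h2 (by rw [h6, h4, hm, h.neg_pow]; simp)
    have d2 : ¬ IsSquare (𝛍 δ : F) := by rwa [h4]
    have hd : 𝛒 δ ≠ 1 := by simpa using simρ_ne hQ h5 d2 1
    have hz1 : 𝛒 (oSim Q z) ∈ (𝐂).ker.map 𝛒 := ⟨_, (cls_oSim hQ h5 hn z).trans z1, rfl⟩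
    have k := ind_cases hQ h5 hn z1 z2 d1 d2
    refine equiv_klein hz hd (simρ_ne hQ h5 d2 z) (simρ_o_sq hQ h5 z) h7 ?_ hz1 ⟨_, d1, rfl⟩ k
    rcases k _ (mul_mem ⟨δ, d1, rfl⟩ hz1) with e | e | e | e
    · exact absurd (mul_right_cancel (e.trans (simρ_o_sq hQ h5 z).symm)) (simρ_ne hQ h5 d2 z)
    · exact absurd (mul_eq_right.1 e) hd
    · exact absurd (mul_eq_left.1 e) hz
    · exact e.symm

end Cfsg.Agent.H29
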