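import Cfsg.Agent.H68.QInn

/-! The images of the conformal, full and special orthogonal groups in `Aut (PΩ)`. -/

set_option autoImplicit false

namespace Cfsg.Agent.H29

open Matrix QuadraticMap Cfsg.Agent.H28 Cfsg.Agent.H68

section Grp

variable {A S C : Type*} [Group A] [Group S] [Group C]

theorem exists_hom_of_map (K : Subgroup A) [K.Normal] {H : Subgroup A} {D : Subgroup (A ⧸ K)}
    (h : H.map (QuotientGroup.mk' K) = D) (e : D ≃* C) :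
    ∃ φ : H →* C, Function.Surjective φ ∧ φ.ker = K.subgroupOf H := by
  subst h
  refine ⟨e.toMonoidHom.comp ((QuotientGroup.mk' K).subgroupMap H),
    e.surjective.comp (MonoidHom.subgroupMap_surjective _ _), ?_⟩
  ext x
  rw [MonoidHom.mem_ker, MonoidHom.comp_apply, MulEquiv.coe_toMonoidHom,
    map_eq_one_iff _ e.injective, Subtype.ext_iff, Subgroup.mem_subgroupOf]
  exact QuotientGroup.eq_one_iff _

theorem exists_hom_range (π : S →* A) (ψ : S →* C) (hψ : Function.Surjective ψ)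
    (hk : π.ker ≤ ψ.ker) :
    ∃ φ : π.range →* C, Function.Surjective φ ∧ φ.ker = (ψ.ker.map π).subgroupOf π.range := by
  have hk' : π.rangeRestrict.ker ≤ ψ.ker := by rwa [MonoidHom.ker_rangeRestrict]
  have e := π.rangeRestrict.liftOfRightInverse_comp_apply _
    (Function.rightInverse_surjInv π.rangeRestrict_surjective) ⟨ψ, hk'⟩
  refine ⟨π.rangeRestrict.liftOfSurjective π.rangeRestrict_surjective ⟨ψ, hk'⟩, fun c => ?_, ?_⟩
  · obtain ⟨s, rfl⟩ := hψ c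
    exact ⟨_, e s⟩
  · ext x
    obtain ⟨s, rfl⟩ := π.rangeRestrict_surjective x
    rw [MonoidHom.mem_ker, e s, Subgroup.mem_subgroupOf]
    refine ⟨fun h => ⟨s, h, rfl⟩, fun ⟨t, h1, h2⟩ => ?_⟩
    have := hk (x := s * t⁻¹) (by rw [MonoidHom.mem_ker, map_mul, map_inv, h2]; exact mul_inv_cancel _)
    exact (Subgroup.mul_mem_cancel_right _ (inv_mem h1)).1 this

theorem equiv_zmod_four {N : Type*} [Group N] {D : Subgroup N} {z d : N} (hz : z ≠ 1) (hd : d ≠ 1)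
    (hdz : d ≠ z) (hzz : z * z = 1) (hdd : d * d = z) (hdD : d ∈ D)
    (hD : ∀ x ∈ D, x = 1 ∨ x = z ∨ x = d ∨ x = z * d) :
    Nonempty (D ≃* Multiplicative (ZMod 4)) := by
  have h4 := card_eq_four_of hz hd hdz hzz (hdd ▸ D.mul_mem hdD hdD) hdD hD
  have : IsCyclic D := ⟨⟨d, hdD⟩, fun x => by
    rcases hD x x.2 with h | h | h | h
    · exact ⟨0, Subtype.ext (by simp [h])⟩
    · exact ⟨2, Subtype.ext (by simp [h, pow_two, hdd])⟩
    · exact ⟨1, Subtype.ext (by simp [h])⟩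
    · exact ⟨3, Subtype.ext (by simp [h, pow_three', hdd])⟩⟩
  exact ⟨mulEquivOfCyclicCardEq (by
    rw [h4, Nat.card_congr Multiplicative.toAdd, Nat.card_zmod])⟩

/-- `ℤˣ × ℤˣ` is a four-group. -/
theorem units_prod_equiv : Nonempty (ℤˣ × ℤˣ ≃* Multiplicative (ZMod 2 × ZMod 2)) := by
  obtain ⟨e⟩ := equiv_c2_of_card (G := ℤˣ) (by simp)
  exact ⟨(e.prodCongr e).trans (MulEquiv.prodMultiplicative _ _).symm⟩

end Grp

variable {F : Type*} [Field F] {ι : Type} [Fintype ι] [DecidableEq ι]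
  {Q : QuadraticForm F (ι → F)} [Finite F] (hQ : (polarBilin Q).Nondegenerate)
  (h5 : 5 ≤ Fintype.card ι)

local notation "𝐃" => dickson hQ (ok5 h5)
local notation "𝐒" => spinor hQ (ok5 h5)
local notation "𝛑" => MDict.πD (dSim hQ h5)
local notation "𝐣" => MDict.toΓ (dSim hQ h5)
local notation "𝛍" => qMult (q_ne hQ h5)

theorem range_dictO {D : Subgroup (GL ι F)} (hD : D ≤ Sim Q) (hΩ : ∀ x : Omega F Q, x.1.1 ∈ D) :
    (dictO hQ h5 hD hΩ).πD.range = (D.subgroupOf (Sim Q)).map 𝛑 := by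
  ext β
  exact ⟨fun ⟨g, h⟩ => ⟨⟨g.1, hD g.2⟩, g.2, h⟩, fun ⟨g, h1, h⟩ => ⟨⟨g.1, h1⟩, h⟩⟩

theorem pgoAut_eq : pgoAut F Q = (𝛑).range :=
  autSubgroupOf_eq fun β => ((dSim hQ h5).mem_range_πD β).symm

theorem dP_range (hn : Even (Fintype.card ι)) :
    (dP hQ h5 hn).πD.range = (cls hQ h5 hn).ker.map 𝛑 := by
  refine (range_dictO hQ h5 (simP_le hQ h5 hn) (omega_mem_simP hQ h5 hn)).trans ?_
  congr 1
  exact Subgroup.ext fun g => mem_simP' hQ h5 hn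

theorem π_scSim (μ : Fˣ) : 𝛑 (scSim Q μ) = 1 := by
  rw [← map_one 𝛑, MDict.πD_eq_iff]
  exact ⟨μ, (mul_one _).symm⟩

omit [Finite F] in
theorem scSim_neg_one : scSim Q (-1) = oSim Q (negO Q) :=
  Subtype.ext (Units.ext ((scGL_coe (ι := ι) (-1 : Fˣ)).trans (by
    rw [Units.val_neg, Units.val_one, neg_smul, one_smul]; rfl)))

theorem π_eq_one {g : Sim Q} (h : 𝛑 g = 1) : ∃ μ, g = scSim Q μ := by
  rw [← map_one 𝛑, MDict.πD_eq_iff] at h
  exact h.imp fun μ h => Subtype.ext (h.trans (mul_one _))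

theorem ker_le_zMul (N : Subgroup (O Q)) : (𝛑).ker ≤ zMul N := fun g h => by
  obtain ⟨μ, rfl⟩ := π_eq_one hQ h5 h
  exact scSim_mem_zMul N μ

theorem map_zMul (N : Subgroup (O Q)) : (zMul N).map 𝛑 = N.map ((𝛑).comp (oSim Q)) := by
  refine le_antisymm ?_ ?_
  · rintro _ ⟨_, ⟨μ, s, hs, rfl⟩, rfl⟩
    exact ⟨s, hs, by rw [map_mul, π_scSim hQ h5, one_mul]; rfl⟩
  · rintro _ ⟨s, hs, rfl⟩
    exact ⟨_, oSim_mem_zMul hs, rfl⟩

theorem inn_eq : Inn (POmega F Q) = (zMul (Omega F Q)).map 𝛑 := by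
  rw [map_zMul hQ h5]
  refine le_antisymm ?_ ?_
  · rintro _ ⟨y, rfl⟩
    obtain ⟨x, rfl⟩ := QuotientGroup.mk_surjective y
    exact ⟨x.1, x.2, ((dSim hQ h5).conj_mk x).symm⟩
  · rintro _ ⟨s, hs, rfl⟩
    exact ⟨QuotientGroup.mk ⟨s, hs⟩, (dSim hQ h5).conj_mk ⟨s, hs⟩⟩

theorem poAut_eq : Cfsg.poAut F Q = (zMul ⊤).map 𝛑 := by
  refine (autSubgroupOf_eq fun β =>
    ((dictO hQ h5 o_le_sim fun x => x.1.2).mem_range_πD β).symm).trans
      ((range_dictO hQ h5 o_le_sim fun x => x.1.2).trans ?_)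
  rw [map_zMul hQ h5]
  exact le_antisymm (by rintro _ ⟨g, h, rfl⟩; exact ⟨⟨g.1, h⟩, trivial, rfl⟩)
    (by rintro _ ⟨s, -, rfl⟩; exact ⟨oSim Q s, s.2, rfl⟩)

theorem psoAut_eq (h2 : (2 : F) ≠ 0) : psoAut F Q = (zMul (𝐃).ker).map 𝛑 := by
  have k : ∀ s : O Q, s.1 ∈ specialIsometryGL F Q ↔ 𝐃 s = 1 := fun s => by
    rw [dickson_eq_of_det hQ h5 h2]
    exact ⟨fun h => congrArg Units.val h.2, fun h => ⟨s.2, Units.ext h⟩⟩
  have h1 : specialIsometryGL F Q ≤ Sim Q := fun _ h => o_le_sim h.1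
  have h3 : ∀ x : Omega F Q, x.1.1 ∈ specialIsometryGL F Q := fun x =>
    (k x.1).2 (omega_le_ker hQ h5 x.2)
  refine (autSubgroupOf_eq fun β => ((dictO hQ h5 h1 h3).mem_range_πD β).symm).trans
    ((range_dictO hQ h5 h1 h3).trans ?_)
  rw [map_zMul hQ h5]
  exact le_antisymm (by rintro _ ⟨g, h, rfl⟩; exact ⟨⟨g.1, h.1⟩, (k _).1 h, rfl⟩)
    (by rintro _ ⟨s, h, rfl⟩; exact ⟨oSim Q s, (k s).2 h, rfl⟩)

theorem exists_toΓ' {γ : GamO Q} (h : γ.1.right = 1) : ∃ g, 𝐣 g = γ :=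
  ⟨⟨γ.1.left, mult γ, fun v => by rw [← gvec_of_right h, gamO_Q, h]; rfl⟩,
    Subtype.ext (SemidirectProduct.ext rfl h.symm)⟩

theorem mult_toΓ (g : Sim Q) : (mult (𝐣 g) : F) = 𝛍 g :=
  omult_eq hQ h5 _ fun v => (congrArg Q (MDict.gvec_toΓ _ g v)).trans (qMult_spec _ g v)

include hQ h5 in
theorem map_pgoAut : (pgoAut F Q).map (QuotientGroup.mk' _) = simOut Q := by
  rw [pgoAut_eq hQ h5]
  refine le_antisymm ?_ ?_
  · rintro _ ⟨_, ⟨g, rfl⟩, rfl⟩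
    exact ⟨𝐣 g, rfl, rfl⟩
  · rintro _ ⟨γ, h, rfl⟩
    obtain ⟨g, rfl⟩ := exists_toΓ' hQ h5 h
    exact ⟨_, ⟨g, rfl⟩, rfl⟩

theorem relIndex_map_π {A B : Subgroup (Sim Q)} (hA : (𝛑).ker ≤ A) (hB : (𝛑).ker ≤ B) :
    (A.map 𝛑).relIndex (B.map 𝛑) = A.relIndex B := by
  rw [Subgroup.relIndex_map_map, sup_eq_left.2 hA, sup_eq_left.2 hB]

include hQ h5 in
theorem relIndex_pso (h2 : (2 : F) ≠ 0) (hn : Even (Fintype.card ι)) :
    (negO Q ∈ Omega F Q → (Inn (POmega F Q)).relIndex (psoAut F Q) = 2) ∧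
      (negO Q ∉ Omega F Q → (Inn (POmega F Q)).relIndex (psoAut F Q) = 1) := by
  rw [inn_eq hQ h5, psoAut_eq hQ h5 h2, relIndex_map_π hQ h5 (ker_le_zMul hQ h5 _)
    (ker_le_zMul hQ h5 _)]
  refine ⟨fun h => relIndex_zOm hQ h5 h2 fun _ => ((mem_omega_iff hQ _ _).1 h).2, fun h => ?_⟩
  have h1 := dickson_negO_even hQ h5 hn
  refine Subgroup.relIndex_eq_one.2 (zSO_le_of hQ h5 le_rfl h1 ((Int.units_eq_one_or _).resolve_left
    fun e => h ((mem_omega_iff hQ _ _).2 ⟨h1, e⟩)) ?_)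
  exact scSim_neg_one (Q := Q) ▸ scSim_mem_zMul _ _

/-- The square class of the multiplier. -/
noncomputable def sqMult : Sim Q →* ℤˣ :=
  MonoidHom.mk' (fun g => sqSign (𝛍 g : F)) fun g h => by
    rw [map_mul, Units.val_mul, sqSign_mul (Units.ne_zero _) (Units.ne_zero _)]

include hQ h5 in
theorem exists_hom_pgo_pso (h2 : (2 : F) ≠ 0) (hn : Even (Fintype.card ι)) {δ : GamO Q}
    (hδ : δ.1.right = 1) (h : ¬ IsSquare (mult δ : F)) :
    ∃ φ : pgoAut F Q →* Multiplicative (ZMod 2 × ZMod 2), Function.Surjective φ ∧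
      φ.ker = (psoAut F Q).subgroupOf (pgoAut F Q) := by
  obtain ⟨e⟩ := units_prod_equiv
  obtain ⟨d, d1, d2⟩ := exists_delta_cls hQ h5 hn δ hδ h
  obtain ⟨v, hv⟩ := q_ne hQ h5
  set ψ := (cls hQ h5 hn).prod (sqMult hQ h5)
  have k : (e.toMonoidHom.comp ψ).ker = zMul (𝐃).ker := by
    ext g
    rw [MonoidHom.mem_ker, MonoidHom.comp_apply, MulEquiv.coe_toMonoidHom,
      map_eq_one_iff _ e.injective, mem_zSO_iff hQ h5 hn, ← sqSign_eq_one, Prod.ext_iff]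
    rfl
  have e1 : ψ d = (1, -1) := Prod.ext d1 (sqSign_eq_neg_one.2 d2)
  have e2 : ψ (oSim Q (refl Q v)) = (-1, 1) := Prod.ext
    ((cls_oSim hQ h5 hn _).trans (dickson_refl hQ _ hv))
    (by change sqSign ((𝛍 _ : Fˣ) : F) = 1; rw [qMult_oSim, Units.val_one, sqSign_one])
  rw [pgoAut_eq hQ h5, psoAut_eq hQ h5 h2, ← k]
  refine exists_hom_range _ _ (e.surjective.comp fun ⟨a, b⟩ => ?_) (k ▸ ker_le_zMul hQ h5 _)
  rcases Int.units_eq_one_or a with rfl | rfl <;> rcases Int.units_eq_one_or b with rfl | rfl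
  · exact ⟨1, map_one _⟩
  · exact ⟨d, e1⟩
  · exact ⟨_, e2⟩
  · exact ⟨d * oSim Q (refl Q v), by rw [map_mul, e1, e2]; rfl⟩

end Cfsg.Agent.H29
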